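import Cfsg.Agent.H63.AnDefs2

/-!
# A standard subgroup of type `Aₙ`, case I: the involution lies outside the simple group
-/

set_option autoImplicit false

namespace Cfsg.Agent.H62.AnI1

open Cfsg Cfsg.Agent.H63 Cfsg.Agent.H63.SL Cfsg.Agent.H63.AN Subgroup MulAction
open Cfsg.Agent.H7.AA (ev d2 Acts KA NA)
open Equiv (swap Perm)

universe u

variable {G : Type u} [Group G]

theorem mem_C1 {t g : G} : g ∈ C1[t] ↔ Commute g t := mem_centralizer_singleton_iff

/-- The transfer into the centraliser of an involution, at this involution. -/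
theorem transfer_eq [Finite G] {A : Type} [CommGroup A] {t : G} (t2 : t * t = 1)
    (χ : C1[t] →* A) (h : ∀ e : C1[t], IsConj t e → (e : G) ≠ t → χ e = 1) :
    χ.transfer t = χ ⟨t, mem_C1.2 (Commute.refl t)⟩ := by
  classical
  have tH : t ∈ C1[t] := mem_C1.2 (Commute.refl t)
  have := Fintype.ofFinite (Quotient (orbitRel (zpowers t) (G ⧸ C1[t])))
  rw [MonoidHom.transfer_eq_prod_quotient_orbitRel_zpowers_quot]
  have one : ∀ y : G ⧸ C1[t], y = ((1 : G) : G ⧸ C1[t]) ↔ y.out ∈ C1[t] := fun y => by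
    rw [← inv_mem_iff, ← mul_one y.out⁻¹, ← QuotientGroup.eq, QuotientGroup.out_eq']
  rw [Finset.prod_eq_single (Quotient.mk'' ((1 : G) : G ⧸ C1[t]))]
  · congr 1
    have e : (Quotient.mk'' ((1 : G) : G ⧸ C1[t]) :
        Quotient (orbitRel (zpowers t) (G ⧸ C1[t]))).out = ((1 : G) : G ⧸ C1[t]) := by
      obtain ⟨⟨z, hz⟩, e⟩ := Quotient.mk_out' (s₁ := orbitRel (zpowers t) (G ⧸ C1[t]))
        ((1 : G) : G ⧸ C1[t])
      refine e.symm.trans (QuotientGroup.eq.2 ?_)
      simpa using zpowers_le.2 tH hz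
    refine Subtype.ext ?_
    have e2 : Function.minimalPeriod (t • ·) ((1 : G) : G ⧸ C1[t]) = 1 :=
      Function.minimalPeriod_eq_one_iff_isFixedPt.2 (QuotientGroup.eq.2 (by simpa using tH))
    simp only [e, e2, pow_one]
    rw [mul_assoc, ← (mem_C1.1 ((one _).1 rfl)).eq, inv_mul_cancel_left]
  · intro q _ hq
    have d : Function.minimalPeriod (t • ·) q.out ∣ 2 :=
      Function.IsPeriodicPt.minimalPeriod_dvd (by
        change t • t • q.out = q.out
        rw [← mul_smul, t2, one_smul])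
    rcases (Nat.dvd_prime Nat.prime_two).1 d with e | e
    · refine h _ ?_ fun e' => hq ?_
      · simp only [e, pow_one]
        exact isConj_iff.2 ⟨q.out.out⁻¹, by rw [inv_inv]⟩
      · simp only [e, pow_one] at e'
        rw [← (one q.out).2 (mem_C1.2 ?_), Quotient.out_eq']
        rw [mul_assoc, inv_mul_eq_iff_eq_mul] at e'
        exact e'.symm
    · rw [← map_one χ]
      congr 1
      refine Subtype.ext ?_
      simp only [e, sq, t2, mul_one, inv_mul_cancel, OneMemClass.coe_one]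
  · exact fun hn => absurd (Finset.mem_univ _) hn

theorem isConj_of_odd {o x : G} {m : ℕ} (ho : o ^ (2 * m + 1) = 1) (x2 : x * x = 1)
    (e2 : o * x * (o * x) = 1) : IsConj x (o * x) := by
  have xi : x⁻¹ = x := inv_eq_of_mul_eq_one_right x2
  have h1 : x * o⁻¹ * x⁻¹ = o := by
    have : o⁻¹ = x * o * x := by
      rw [inv_eq_iff_mul_eq_one, ← e2]; group
    rw [this, xi, ← mul_assoc, ← mul_assoc, x2, one_mul, mul_assoc, x2, mul_one]
  have h2 : x * o⁻¹ ^ (m + 1) * x⁻¹ = o ^ (m + 1) := by rw [← conj_pow, h1]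
  refine isConj_iff.2 ⟨o ^ (m + 1), ?_⟩
  calc o ^ (m + 1) * x * (o ^ (m + 1))⁻¹ = o ^ (m + 1) * (x * o⁻¹ ^ (m + 1) * x⁻¹) * x := by group
    _ = o * o ^ (2 * m + 1) * x := by rw [h2]; group
    _ = o * x := by rw [ho, mul_one]

/-- **I1** -/
theorem i1 : I1Stmt.{u} := by
  intro G _ _ α _ _ ψ t B K _ j C _ a b hab X gl tX
  classical
  have h5 : 5 ≤ Fintype.card α := le_trans (by norm_num) B.nine
  obtain ⟨π, hπ⟩ := K.hom
  obtain ⟨O, ⟨m, hm⟩, -, -, nO, hO⟩ := K.odd
  have po : ∀ o ∈ O, o ^ (2 * m + 1) = 1 := fun o ho => by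
    have := congrArg Subtype.val (pow_card_eq_one' (x := (⟨o, ho⟩ : O)))
    rwa [hm] at this
  have tO : t ∉ O := fun h => B.t1 (by simpa [pow_succ, pow_mul, pow_two, B.t2] using po t h)
  have cK : ∀ g : C1[t], (g : G) * (j (π g))⁻¹ ∈ KA ψ := fun g => by
    have := (hπ g).mul (C.sec.ac (π g)).inv
    rw [mul_inv_cancel] at this
    exact this.KA
  have cT : ∀ g : C1[t], Commute ((g : G) * (j (π g))⁻¹) t := fun g =>
    (mem_C1.1 g.2).mul_left (C.sec.cm _).inv_left
  let χ : C1[t] →* ℤˣ := MonoidHom.mk' (fun g => if (g : G) * (j (π g))⁻¹ ∈ O then 1 else -1)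
    fun g h => by
      have e : ((g * h : C1[t]) : G) * (j (π (g * h)))⁻¹ =
          g * (h * (j (π h))⁻¹) * (g : G)⁻¹ * (g * (j (π g))⁻¹) := by
        rw [map_mul, map_mul, coe_mul]; group
      have n := mem_normalizer_iff.1 (nO g.2)
      rw [e]
      by_cases a : (g : G) * (j (π g))⁻¹ ∈ O <;> by_cases b : (h : G) * (j (π h))⁻¹ ∈ O
      · simp only [if_pos a, if_pos b, if_pos (mul_mem ((n _).1 b) a), mul_one]
      · rw [if_pos a, if_neg b, if_neg fun c => b ((n _).2 ((O.mul_mem_cancel_right a).1 c)),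
          one_mul]
      · rw [if_neg a, if_pos b, if_neg fun c => a ((O.mul_mem_cancel_left ((n _).1 b)).1 c),
          mul_one]
      · have a' := (hO _ (cK g) (cT g)).resolve_left a
        have b' := (n _).1 ((hO _ (cK h) (cT h)).resolve_left b)
        have := mul_mem b' a'
        have c1 := (cT g).eq
        have c2 := (mem_C1.1 g.2).inv_left.eq
        generalize (g : G) * (j (π g))⁻¹ = x at *
        generalize (h : G) * (j (π h))⁻¹ = y at *
        rw [show g * (y * t) * (g : G)⁻¹ * (x * t) = g * y * (g : G)⁻¹ * x by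
          rw [c1, mul_assoc _ (y * t), mul_assoc y, ← c2]
          calc _ = g * y * (g : G)⁻¹ * (t * t) * x := by group
            _ = _ := by rw [B.t2, mul_one]] at this
        rw [if_neg a, if_neg b, if_pos this]; norm_num
  have tr := transfer_eq B.t2 χ fun e he ne => by
    obtain ⟨c, d, cd, es⟩ := C.p1 e (π e) ⟨he, mem_C1.1 e.2, ne, hπ e⟩
    refine if_pos (by_contra fun k => C.i0 c d cd ?_)
    have o := (hO _ (cK e) (cT e)).resolve_left k
    rw [es] at o
    have x2 : t * j (swap c d) * (t * j (swap c d)) = 1 := by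
      rw [mul_assoc, ← mul_assoc (j _), (C.sec.cm _).eq, mul_assoc, ← map_mul,
        Equiv.swap_mul_self, map_one, mul_one, B.t2]
    have e1 : (e : G) * (j (swap c d))⁻¹ * t * (t * j (swap c d)) = e := by
      rw [mul_assoc, ← mul_assoc t, B.t2]; group
    have e2 : (e : G) * e = 1 := by
      obtain ⟨g, hg⟩ := isConj_iff.1 he
      rw [← hg]
      calc g * t * g⁻¹ * (g * t * g⁻¹) = g * (t * t) * g⁻¹ := by group
        _ = 1 := by rw [B.t2]; group
    have := isConj_of_odd (po _ o) x2 (by rw [e1, e2])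
    rw [e1] at this
    exact he.trans this.symm
  have ct : χ ⟨t, mem_C1.2 (Commute.refl t)⟩ = -1 := if_neg (by
    rw [(hπ ⟨t, mem_C1.2 (Commute.refl t)⟩).eq_of h5 B.inj B.tK, map_one, inv_one, mul_one]
    exact tO)
  rw [ct] at tr
  have top : X = ⊤ := by rw [← gl.gen]; exact (sup_eq_left.2 (zpowers_le.2 tX)).symm
  have := gl.simple
  rcases Normal.eq_bot_or_eq_top (H := χ.transfer.ker.subgroupOf X) inferInstance with e | e
  · have h1 : (⟨t * (j (swap a b))⁻¹, by rw [top]; trivial⟩ : X) ∈ χ.transfer.ker.subgroupOf X := by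
      rw [mem_subgroupOf, MonoidHom.mem_ker, map_mul, map_inv,
        isConj_iff_eq.1 (χ.transfer.map_isConj (C.cj a b hab)), mul_inv_cancel]
    rw [e, mem_bot] at h1
    have h2 : t = j (swap a b) := mul_inv_eq_one.1 (congrArg Subtype.val h1)
    exact hab (Equiv.swap_eq_one_iff.1 ((C.sec.ac _).eq_of h5 B.inj (h2 ▸ B.tK)))
  · have h1 : (⟨t, tX⟩ : X) ∈ χ.transfer.ker.subgroupOf X := by rw [e]; trivial
    rw [mem_subgroupOf, MonoidHom.mem_ker, tr] at h1
    exact absurd h1 (by decide)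

end Cfsg.Agent.H62.AnI1
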