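import Cfsg.Agent.H97.JmDefs

/-!
# A Sylow subgroup invariant under a coprime element of prime order
-/

set_option autoImplicit false

namespace Cfsg.Agent.H97.JM

open Subgroup
open scoped Pointwise

universe u

theorem pINV (hFIX : FIX.{u}) : INV.{u} := by
  intro G _ _ R r q x hr hq hx hxR hn
  haveI : Fact r.Prime := ⟨hr⟩
  haveI : Fact q.Prime := ⟨hq⟩
  have hle : zpowers x ≤ normalizer (R : Set G) := by
    rwa [zpowers_le]
  let φ : zpowers x →* MulAut R := R.normalizerMonoidHom.comp (inclusion hle)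
  letI : MulAction (zpowers x) (Sylow q R) := MulAction.compHom _ φ
  have hP : IsPGroup r (zpowers x) := by
    apply IsPGroup.of_card (n := 1)
    rw [Nat.card_zpowers, hx, pow_one]
  obtain ⟨T⟩ : Nonempty (Sylow q R) := inferInstance
  have hnd : ¬ r ∣ Nat.card (Sylow q R) := fun h =>
    hn (h.trans (T.card_dvd_index.trans (index_dvd_card _)))
  obtain ⟨S, hS⟩ := hP.nonempty_fixed_point_of_prime_not_dvd_card (Sylow q R) hnd
  have hfix : φ ⟨x, mem_zpowers x⟩ • S = S := hS ⟨x, mem_zpowers x⟩
  refine ⟨(S : Subgroup R).map R.subtype, map_subtype_le _, ?_, ?_⟩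
  · rw [card_map_of_injective R.subtype_injective, S.card_eq_multiplicity]
  · apply mem_normalizer_fintype
    rintro _ ⟨s, hs, rfl⟩
    have h1 : φ ⟨x, mem_zpowers x⟩ • s ∈ (S : Subgroup R) := by
      rw [← hfix, Sylow.pointwise_smul_def]
      exact smul_mem_pointwise_smul _ _ _ hs
    exact ⟨_, h1, rfl⟩

end Cfsg.Agent.H97.JM
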