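import Cfsg.Agent.H45.OnDefs
import Cfsg.Agent.S0204

/-!
Elementary facts on a non-abelian simple subgroup.
-/

set_option autoImplicit false

namespace Cfsg.Agent.H62.OnSim

open Subgroup Cfsg.Agent.H45.On
open scoped Pointwise commutatorElement

universe u

theorem second {H : Type*} [Group H] [Finite H] {a b s : H} (ha : Inv a) (hb : Inv b) (hab : a ≠ b)
    (hc : a * b = b * a) (hs : Inv s) : ∃ t, Inv t ∧ t ≠ s ∧ s * t = t * s := by
  haveI : Fact (Nat.Prime 2) := ⟨Nat.prime_two⟩
  have zp : ∀ x : H, Inv x → IsPGroup 2 (zpowers x) := fun x hx =>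
    IsPGroup.of_card (n := 1) (by
      rw [Nat.card_zpowers, orderOf_eq_prime (by rw [pow_two, hx.1]) hx.2, pow_one])
  obtain ⟨P, hP⟩ := (zp s hs).exists_le_sylow
  have hn : zpowers a ≤ normalizer (zpowers b : Set H) := by
    refine le_trans ?_ (centralizer_le_normalizer _)
    rw [zpowers_le]
    rintro _ ⟨k, rfl⟩
    exact (Commute.zpow_left (show Commute b a from hc.symm) k).eq
  obtain ⟨Q, hQ⟩ := ((zp a ha).to_sup_of_normal_right' (zp b hb) hn).exists_le_sylow
  obtain ⟨g, hg⟩ := MulAction.exists_smul_eq H Q P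
  have mem : ∀ x ∈ (Q : Subgroup H), g * x * g⁻¹ ∈ (P : Subgroup H) := fun x hx => by
    rw [← hg, Sylow.coe_subgroup_smul]
    exact smul_mem_pointwise_smul x (MulAut.conj g) _ hx
  have inv : ∀ x : H, Inv x → Inv (g * x * g⁻¹) := fun x hx =>
    ⟨by rw [conj_mul, hx.1]; group, fun h => hx.2 (by
      calc x = g⁻¹ * (g * x * g⁻¹) * g := by group
        _ = 1 := by rw [h]; group)⟩
  have hsP : s ∈ (P : Subgroup H) := hP (mem_zpowers s)
  haveI : Nontrivial (P : Subgroup H) := ⟨⟨s, hsP⟩, 1, fun h => hs.2 (congrArg Subtype.val h)⟩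
  haveI := P.isPGroup'.center_nontrivial
  obtain ⟨k, hk0, hk⟩ := (P.isPGroup'.to_subgroup (center P)).nontrivial_iff_card.1 this
  obtain ⟨z, hz⟩ := exists_prime_orderOf_dvd_card' (G := center P) 2
    (by rw [hk]; exact dvd_pow_self 2 hk0.ne')
  have hz' : orderOf ((z : P) : H) = 2 := by rw [orderOf_coe, orderOf_coe, hz]
  have hzi : Inv ((z : P) : H) :=
    ⟨by rw [← pow_two, ← orderOf_dvd_iff_pow_eq_one, hz'], fun h => by
      rw [h, orderOf_one] at hz'; omega⟩
  have hzc : ∀ x ∈ (P : Subgroup H), x * ((z : P) : H) = ((z : P) : H) * x := fun x hx =>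
    congrArg Subtype.val (mem_center_iff.1 z.2 ⟨x, hx⟩)
  by_cases h1 : ((z : P) : H) = s
  · have ha' := mem a (hQ (mem_sup_left (mem_zpowers a)))
    have hb' := mem b (hQ (mem_sup_right (mem_zpowers b)))
    by_cases h2 : g * a * g⁻¹ = s
    · refine ⟨_, inv b hb, fun h3 => hab ?_, by rw [← h1]; exact (hzc _ hb').symm⟩
      rw [← h3] at h2
      simpa using h2
    · exact ⟨_, inv a ha, h2, by rw [← h1]; exact (hzc _ ha').symm⟩
  · exact ⟨_, hzi, h1, hzc s hsP⟩

theorem sim : SimStmt.{u} := by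
  intro G _ _ M hM hab
  have h5 : ∀ Y : Subgroup G, Y ≤ M → (∀ s ∈ M, ∀ h ∈ Y, s * h * s⁻¹ ∈ Y) → Y = ⊥ ∨ Y = M := by
    intro Y hY hc
    have hn : (Y.subgroupOf M).Normal := ⟨fun n hn g => hc g g.2 n hn⟩
    rcases hn.eq_bot_or_eq_top with h | h
    · left
      rw [subgroupOf_eq_bot, disjoint_iff, inf_eq_left.2 hY] at h
      exact h
    · exact Or.inr (le_antisymm hY (subgroupOf_eq_top.1 h))
  have coe : ∀ x : M, Inv x ↔ Inv (x : G) := fun x =>
    ⟨fun h => ⟨congrArg Subtype.val h.1, fun e => h.2 (Subtype.ext e)⟩,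
      fun h => ⟨Subtype.ext h.1, fun e => h.2 (congrArg Subtype.val e)⟩⟩
  have h1 : ∃ a b : M, Inv a ∧ Inv b ∧ a ≠ b ∧ a * b = b * a := by
    obtain ⟨E, hE⟩ := S0204.result (G := M) (fun hc => hab fun a ha b hb => by
      obtain ⟨g, hg⟩ := hc.exists_generator
      obtain ⟨i, hi⟩ := hg ⟨a, ha⟩
      obtain ⟨j, hj⟩ := hg ⟨b, hb⟩
      have : (⟨a, ha⟩ : M) * ⟨b, hb⟩ = ⟨b, hb⟩ * ⟨a, ha⟩ := by
        rw [← hi, ← hj]; exact (Commute.zpow_zpow_self g i j).eq
      exact congrArg Subtype.val this)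
    classical
    haveI := Fintype.ofFinite E
    have h4 : 1 < (Finset.univ.erase (1 : E)).card := by
      rw [Finset.card_erase_of_mem (Finset.mem_univ _), Finset.card_univ, IsKleinFour.card_four']
      norm_num
    obtain ⟨a, ha, b, hb, hne⟩ := Finset.one_lt_card.1 h4
    have sq : ∀ x : E, x * x = 1 := IsKleinFour.mul_self
    refine ⟨a, b, ⟨congrArg Subtype.val (sq a), fun e => (Finset.mem_erase.1 ha).1 (Subtype.ext e)⟩,
      ⟨congrArg Subtype.val (sq b), fun e => (Finset.mem_erase.1 hb).1 (Subtype.ext e)⟩,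
      fun e => hne (Subtype.ext e), congrArg Subtype.val (show a * b = b * a from ?_)⟩
    calc a * b = (a * b)⁻¹ := (inv_eq_of_mul_eq_one_right (sq _)).symm
      _ = b * a := by
        rw [mul_inv_rev, inv_eq_of_mul_eq_one_right (sq a), inv_eq_of_mul_eq_one_right (sq b)]
  obtain ⟨a, b, ha, hb, hne, hc⟩ := h1
  refine ⟨⟨a, a.2, b, b.2, (coe a).1 ha, (coe b).1 hb, fun e => hne (Subtype.ext e),
    congrArg Subtype.val hc⟩, fun s hs hi => ?_, fun Y hY => ?_, fun Y hY => ?_, h5,
    fun c hcM hcm => ?_⟩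
  · obtain ⟨t, h1, h2, h3⟩ := second ha hb hne hc ((coe ⟨s, hs⟩).2 hi)
    exact ⟨t, t.2, (coe t).1 h1, fun e => h2 (Subtype.ext e), congrArg Subtype.val h3⟩
  · have hle : closure {t | t ∈ M ∧ Inv t} ≤ M := (closure_le _).2 fun t ht => ht.1
    rcases h5 _ hle (fun s hs h hh => by
      induction hh using closure_induction with
      | mem x hx =>
        exact subset_closure ⟨mul_mem (mul_mem hs hx.1) (inv_mem hs),
          by rw [conj_mul, hx.2.1]; group, fun e => hx.2.2 (by
            calc x = s⁻¹ * (s * x * s⁻¹) * s := by group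
              _ = 1 := by rw [e]; group)⟩
      | one => simp
      | mul x y _ _ h1 h2 => rw [← conj_mul]; exact mul_mem h1 h2
      | inv x _ h1 => rw [← conj_inv]; exact inv_mem h1) with h | h
    · have : (a : G) ∈ closure {t | t ∈ M ∧ Inv t} := subset_closure ⟨a.2, (coe a).1 ha⟩
      rw [h, mem_bot] at this
      exact absurd this ((coe a).1 ha).2
    · rw [← h]
      exact (closure_le _).2 fun t ht => hY t ht.1 ht.2
  · have hle : ⁅M, M⁆ ≤ M := commutator_le.2 fun x hx y hy =>
      mul_mem (mul_mem (mul_mem hx hy) (inv_mem hx)) (inv_mem hy)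
    rcases h5 _ hle (fun s hs h hh => by
      have h1 : s * h * s⁻¹ = ⁅s, h⁆ * h := by rw [commutatorElement_def]; group
      rw [h1]
      exact mul_mem (commutator_mem_commutator hs (hle hh)) hh) with h | h
    · refine absurd (fun x hx y hy => ?_) hab
      have := commutator_mem_commutator hx hy
      rw [h, mem_bot, commutatorElement_eq_one_iff_mul_comm] at this
      exact this
    · rw [← h]
      exact commutator_le.2 fun x hx y hy => hY x hx y hy
  · rcases h5 (M ⊓ centralizer (M : Set G)) inf_le_left (fun s hs h hh => by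
      rw [hh.2 s hs, mul_inv_cancel_right]; exact hh) with h | h
    · have : c ∈ M ⊓ centralizer (M : Set G) := ⟨hcM, fun m hm => (hcm m hm).symm⟩
      rwa [h, mem_bot] at this
    · refine absurd (fun x hx y hy => ?_) hab
      have : y ∈ M ⊓ centralizer (M : Set G) := h.symm ▸ hy
      exact this.2 x hx

end Cfsg.Agent.H62.OnSim
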