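import Cfsg.Agent.H35.RfQ
import Cfsg.Agent.H83.Syl

/-! Project RF: the facts `Td` in the cocode case. -/

set_option autoImplicit false
set_option maxRecDepth 1000000

namespace Cfsg.Agent.H62.RfTd

open Cfsg Subgroup Cfsg.Agent.H42 Cfsg.Agent.H18.Rf Cfsg.Agent.H35.RF
open scoped commutatorElement Pointwise symmDiff

universe u

/-! ### Computations in the Mathieu group -/

/-- a test passed by the elements of the normal `2^6` -/
noncomputable def qF (y : ℕ) : Bool :=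
  Bool.and (allL (fun i => Nat.beq (img y (fld 24 sext0 i)) (fld 24 sext0 i)) [0, 1, 2, 3, 4, 5])
    (Nat.beq (pmul y y) pid)

/-- the test for the elements of `Y` -/
noncomputable def pY (y : ℕ) : Bool :=
  Bool.and (qF (pmul (pmul (pmul y rS) (pinv y)) (pinv rS))) (qF (pmul y y))

/-- all tetrad parities agree -/
noncomputable def pE (a : ℕ) : Bool :=
  allL (fun i => Nat.beq (pc (Nat.land (fld 24 sext0 i) a) % 2)
    (pc (Nat.land (fld 24 sext0 0) a) % 2)) [0, 1, 2, 3, 4, 5]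

theorem inM_gF : ∀ g ∈ gF, inM g = true := inM_of_allL (by decide +kernel)

theorem inM_rS : inM rS = true := by decide +kernel

theorem chkF : orbAll (actsOf pmul gF) pid 70 qF = true := by decide +kernel

theorem chkY : orbCnt (actsOf pmul gensP24) pid 1100 pY 384 = true := by decide +kernel

theorem chkE : orbAll (actsOf pmul gensP24) pid 1100
    (fun y => pE (Nat.xor (img y 9) 9)) = true := by decide +kernel

theorem chkP : allL inP24 gF = true := by decide +kernel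

theorem F_le : gen gF ≤ P24 :=
  gen_le _ fun g hg => mem_of_inP24 g (inM_gF g hg) (allL_iff.1 chkP g hg)

theorem P_le : P24 ≤ GS := fun _ hs => hs.1.2

theorem qF_of {y : ℕ} (hy : inM y = true) (h : toM y ∈ gen gF) : qF y = true := by
  obtain ⟨f, hf, e, hq⟩ := forall_gen inM_gF chkF h
  rwa [← toM_inj hf hy e]

theorem card_le (S : Subgroup M24) (hS : S ≤ P24)
    (h1 : ∀ x ∈ S, ⁅x, toM rS⁆ ∈ gen gF) (h2 : ∀ x ∈ S, x * x ∈ gen gF) : Nat.card S ≤ 256 := by
  have hc := ncard_gen_filter inM_gensP24 chkY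
    (fun x => ∃ y, inM y = true ∧ toM y = x ∧ pY y = true)
    (fun y hy => ⟨fun ⟨y', hy', e, hp⟩ => by rwa [← toM_inj hy' hy e], fun hp => ⟨y, hy, rfl, hp⟩⟩)
  have hle : Nat.card S ≤ 384 := by
    rw [← hc, ← SetLike.coe_sort_coe, Nat.card_coe_set_eq]
    refine Set.ncard_le_ncard (fun x hx => ?_) (Set.toFinite _)
    have hx' : x ∈ gen gensP24 := P24_eq ▸ hS hx
    obtain ⟨y, hy, e, -⟩ := forall_gen inM_gensP24 chkE hx'
    refine ⟨hx', y, hy, e, Bool.and_eq_true_iff.2 ⟨qF_of ?_ ?_, qF_of (inM_pmul hy hy) ?_⟩⟩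
    · exact inM_pmul (inM_pmul (inM_pmul hy inM_rS) (inM_pinv hy)) (inM_pinv inM_rS)
    · rw [toM_pmul (inM_pmul (inM_pmul hy inM_rS) (inM_pinv hy)) (inM_pinv inM_rS),
        toM_pmul (inM_pmul hy inM_rS) (inM_pinv hy), toM_pmul hy inM_rS, toM_pinv hy,
        toM_pinv inM_rS, e]
      exact h1 x hx
    · rw [toM_pmul hy hy, e]
      exact h2 x hx
  have hd : Nat.card S ∣ 2 ^ 10 := by
    have := card_dvd_of_le hS
    rwa [card_P24] at this
  obtain ⟨k, hk, e⟩ := (Nat.dvd_prime_pow Nat.prime_two).1 hd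
  rw [e] at hle ⊢
  interval_cases k <;> omega

/-! ### Parities -/

/-- parity on a tetrad -/
def par (c : Finset GolayPt) (i : ℕ) : ℕ := (c ∩ toSet (fld 24 sext0 i)).card % 2

theorem par_sd (c d : Finset GolayPt) (i : ℕ) : par (c ∆ d) i = (par c i + par d i) % 2 := by
  have e : (c ∆ d) ∩ toSet (fld 24 sext0 i) =
      (c ∩ toSet (fld 24 sext0 i)) ∆ (d ∩ toSet (fld 24 sext0 i)) :=
    inf_symmDiff_distrib_right c d _
  have := card_symmDiff_add (c ∩ toSet (fld 24 sext0 i)) (d ∩ toSet (fld 24 sext0 i))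
  unfold par
  rw [e]
  omega

theorem par_smul {g : ℕ} (hg : inM g = true) (c : Finset GolayPt) (i j : ℕ)
    (h : img g (fld 24 sext0 j) = fld 24 sext0 i) : par (toM g • c) i = par c j := by
  unfold par
  rw [← h, ← toM_smul_toSet hg, ← Finset.smul_finset_inter, Finset.card_smul_finset]

theorem par_toSet (a i : ℕ) : par (toSet a) i = pc (Nat.land (fld 24 sext0 i) a) % 2 := by
  unfold par
  rw [Finset.inter_comm, card_toSet_inter a (fld24_lt _ _)]

theorem par_lt (c : Finset GolayPt) (i : ℕ) : par c i < 2 := Nat.mod_lt _ (by norm_num)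

/-- all parities agree -/
def EqP (c : Finset GolayPt) : Prop := ∀ i < 6, ∀ j < 6, par c i = par c j

theorem eqP_iff (c : Finset GolayPt) : (∀ t ∈ famDec 6 sext0, ∀ t' ∈ famDec 6 sext0,
    (c ∩ t).card % 2 = (c ∩ t').card % 2) ↔ EqP c := by
  simp only [forall_famDec]
  rfl

theorem eqP_of {c : Finset GolayPt} (h : ∀ i < 6, par c i = par c 0) : EqP c :=
  fun i hi j hj => (h i hi).trans (h j hj).symm

theorem eqP_toSet {a : ℕ} (h : pE a = true) : EqP (toSet a) := by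
  refine eqP_of fun i hi => ?_
  rw [par_toSet, par_toSet]
  refine Nat.eq_of_beq_eq_true (allL_iff.1 h i ?_)
  interval_cases i <;> simp

theorem even9 : Even (toSet 9).card := by
  rw [card_toSet (by norm_num)]
  decide +kernel

theorem even_sd {c d : Finset GolayPt} (hc : Even c.card) (hd : Even d.card) :
    Even (c ∆ d).card := by
  have := card_symmDiff_add c d
  rw [Nat.even_iff] at *
  omega

theorem par9 : par (toSet 9) 0 = 1 ∧ par (toSet 9) 1 = 0 ∧ par (toSet 9) 2 = 0 ∧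
    par (toSet 9) 3 = 0 ∧ par (toSet 9) 4 = 0 ∧ par (toSet 9) 5 = 1 := by
  simp only [par_toSet]
  decide +kernel

/-- two elements centralizing `rS` -/
def g3 : ℕ := 591298695146988358113678685722657955
/-- two elements centralizing `rS` -/
def g4 : ℕ := 981818691054096003685363657089320992

theorem chk3 : inM g3 = true ∧ inP24 g3 = true ∧ pmul g3 rS = pmul rS g3 ∧
    img g3 (fld 24 sext0 5) = fld 24 sext0 0 ∧ img g3 (fld 24 sext0 1) = fld 24 sext0 1 ∧
    img g3 (fld 24 sext0 4) = fld 24 sext0 3 := by decide +kernel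

theorem chk4 : inM g4 = true ∧ inP24 g4 = true ∧ pmul g4 rS = pmul rS g4 ∧
    img g4 (fld 24 sext0 0) = fld 24 sext0 0 ∧ img g4 (fld 24 sext0 3) = fld 24 sext0 1 ∧
    img g4 (fld 24 sext0 4) = fld 24 sext0 2 := by decide +kernel

theorem last (c : Finset GolayPt) (h3 : EqP ((toM g3 • c) ∆ c)) (h4 : EqP ((toM g4 • c) ∆ c)) :
    EqP c ∨ EqP (c ∆ toSet 9) := by
  obtain ⟨a0, -, -, a1, a2, a3⟩ := chk3
  obtain ⟨b0, -, -, b1, b2, b3⟩ := chk4
  have e1 := h3 0 (by norm_num) 1 (by norm_num)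
  have e2 := h3 3 (by norm_num) 1 (by norm_num)
  have e3 := h4 1 (by norm_num) 0 (by norm_num)
  have e4 := h4 2 (by norm_num) 0 (by norm_num)
  rw [par_sd, par_sd] at e1 e2 e3 e4
  rw [par_smul a0 c _ _ a1, par_smul a0 c _ _ a2] at e1
  rw [par_smul a0 c _ _ a3, par_smul a0 c _ _ a2] at e2
  rw [par_smul b0 c _ _ b2, par_smul b0 c _ _ b1] at e3
  rw [par_smul b0 c _ _ b3, par_smul b0 c _ _ b1] at e4
  have l0 := par_lt c 0
  have l1 := par_lt c 1
  have l2 := par_lt c 2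
  have l3 := par_lt c 3
  have l4 := par_lt c 4
  have l5 := par_lt c 5
  obtain ⟨p0, p1, p2, p3, p4, p5⟩ := par9
  by_cases h : par c 0 = par c 1
  · refine Or.inl (eqP_of fun i hi => ?_)
    interval_cases i <;> omega
  · refine Or.inr (eqP_of fun i hi => ?_)
    rw [par_sd, par_sd]
    interval_cases i <;> omega

/-! ### The group -/

section
variable {G : Type u} [Group G] {V : Subgroup G} {ρ : NN V →* M24} {ψ : Finset GolayPt → G}

theorem comm_psi (st : St V ρ) (tod : Tod V ρ ψ) (n : NN V) {c : Finset GolayPt}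
    (hc : Even c.card) : ⁅(n : G), ψ c⁆ = ψ ((ρ n • c) ∆ c) := by
  have hc' : Even (ρ n • c).card := by rwa [Finset.card_smul_finset]
  rw [tod.add _ _ hc' hc, ← tod.act n c hc, commutatorElement_def,
    inv_eq_of_mul_eq_one_right (st.el _ (tod.mem c hc))]

theorem comm_mem {ω : G} (h : ω ∈ NN V) (n : NN V) {S : Subgroup M24} :
    ⁅(n : G), ω⁆ ∈ pre V ρ S ↔ ⁅ρ n, ρ ⟨ω, h⟩⁆ ∈ S := by
  rw [← map_commutatorElement, ← coe_mem_pre (V := V)]
  rfl

theorem conj_comm {M R : Subgroup G} {ω m y : G} (nR : M ≤ NN R) (hω : ω ∈ M) (hm : m ∈ M)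
    (hy : m⁻¹ * y * m ∈ M) (sl : ⁅m⁻¹, ω⁆ ∈ R ∨ m⁻¹ * ω * m⁻¹⁻¹ * ω ∈ R)
    (h : ⁅m⁻¹ * y * m, ω⁆ ∈ R) : ⁅y, ω⁆ ∈ R := by
  have cj : ∀ a ∈ M, ∀ r ∈ R, a * r * a⁻¹ ∈ R := fun a ha r hr =>
    (mem_normalizer_iff.1 (nR ha) r).1 hr
  rcases sl with h1 | h1
  · have := cj m hm _ (R.mul_mem (R.mul_mem (cj _ hy _ h1) h) (R.inv_mem h1))
    convert this using 1
    simp only [commutatorElement_def]
    group
  · have := cj m hm _ (R.mul_mem (R.mul_mem (cj _ hy _ h1)
      (cj _ (M.inv_mem hω) _ (R.inv_mem h))) (R.inv_mem h1))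
    convert this using 1
    simp only [commutatorElement_def]
    group

end

theorem td (hK : KitTStmt.{u}) (hV : VaTStmt.{u}) (hT : TaStmt.{u}) : TdStmt.{u} := by
  intro G _ _ V ρ ψ ω tz
  obtain ⟨kM, kW, -, kc, -, -⟩ := hK G V ρ ψ tz.st tz.tod
  have va : Va V (ψ t0) (WT ψ) (RT V ρ) := hV G V ρ ψ ω tz
  have ta : Ta V (ψ t0) (WT ψ) (RT V ρ) ω := hT G V ρ ψ ω tz
  obtain ⟨hω, eω⟩ := tz.om
  have st := tz.st
  have tod := tz.tod
  have kW' : ∀ c : Finset GolayPt, Even c.card → (ψ c ∈ WT ψ ↔ EqP c) := fun c hc =>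
    (kW c hc).trans (eqP_iff c)
  have mono : ∀ {S S' : Subgroup M24}, S ≤ S' → pre V ρ S ≤ pre V ρ S' := fun h g hg => by
    obtain ⟨a, b⟩ := mem_pre.1 hg
    exact mem_pre.2 ⟨a, h b⟩
  have TM : pre V ρ P24 ≤ MM V (ψ t0) := kM ▸ mono P_le
  have cT : Nat.card (pre V ρ P24) = 2 ^ 21 := by rw [kc, card_P24]; norm_num
  refine ⟨fun Y RY YM hY sq => ?_, pre V ρ P24, mono F_le, TM, cT, ψ (toSet 9),
    tod.mem _ even9, fun h => ?_, fun t ht => ?_, fun v hv h => ?_⟩
  · haveI : Fact (Nat.Prime 2) := ⟨Nat.prime_two⟩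
    have hi : (pre V ρ P24).relIndex (MM V (ψ t0)) = 135 := by
      have := ((pre V ρ P24).subgroupOf (MM V (ψ t0))).card_mul_index
      rw [Nat.card_congr (subgroupOfEquivOfLe TM).toEquiv, cT, ta.cM] at this
      exact Nat.eq_of_mul_eq_mul_left (by norm_num) this
    have syl := H83.isSylowIn_of_not_dvd_relIndex (p := 2) TM (IsPGroup.of_card cT)
      (by rw [hi]; norm_num)
    have pR : IsPGroup 2 (RT V ρ) := IsPGroup.of_card ta.cR
    have pY : IsPGroup 2 Y := fun y => by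
      obtain ⟨k, hk⟩ := pR ⟨_, sq y y.2⟩
      refine ⟨k + 1, Subtype.ext ?_⟩
      have := congrArg Subtype.val hk
      simp only [SubgroupClass.coe_pow, OneMemClass.coe_one] at this ⊢
      rw [pow_succ', pow_mul, pow_two, this]
    obtain ⟨m, hm, hle⟩ := syl.exists_conj_le YM pY
    have h1 : H83.cj m Y ≤ pre V ρ (((H83.cj m Y).subgroupOf (NN V)).map ρ) := fun y hy =>
      mem_pre.2 ⟨(TM (hle hy)).1, ⟨y, (TM (hle hy)).1⟩, hy, rfl⟩
    have h2 : Nat.card (((H83.cj m Y).subgroupOf (NN V)).map ρ) ≤ 256 := by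
      refine card_le _ ?_ ?_ ?_
      · rintro _ ⟨n, hn, rfl⟩
        exact coe_mem_pre.1 (hle hn)
      · rintro _ ⟨n, hn, rfl⟩
        have hn' : m⁻¹ * n * m ∈ Y := H83.mem_cj.1 hn
        rw [← eω, ← comm_mem hω]
        exact conj_comm va.nR ta.om hm (YM hn') (ta.sl _ (inv_mem hm)) (hY _ hn')
      · rintro _ ⟨n, hn, rfl⟩
        have hn' : m⁻¹ * n * m ∈ Y := H83.mem_cj.1 hn
        rw [← map_mul, ← coe_mem_pre (V := V)]
        have := (mem_normalizer_iff.1 (va.nR hm) _).1 (sq _ hn')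
        rwa [show m * (m⁻¹ * (n : G) * m * (m⁻¹ * n * m)) * m⁻¹ = n * n by group] at this
    have h3 := card_le_of_le h1
    rw [H83.card_cj, kc] at h3
    rw [ta.cR]
    omega
  · have := (kW' _ even9).1 h 0 (by norm_num) 1 (by norm_num)
    rw [par9.1, par9.2.1] at this
    exact one_ne_zero this
  · obtain ⟨hn, ht'⟩ := mem_pre.1 ht
    obtain ⟨y, hy, e, hp⟩ := forall_gen inM_gensP24 chkE (P24_eq ▸ ht')
    have := comm_psi st tod ⟨t, hn⟩ even9
    rw [show ⁅t, ψ (toSet 9)⁆ = _ from this, kW' _ (even_sd (by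
      rw [Finset.card_smul_finset]; exact even9) even9), ← e, toM_smul_toSet hy, ← toSet_xor]
    exact eqP_toSet hp
  · obtain ⟨c, hc, rfl⟩ := tod.sur v hv
    have key : ∀ g, inM g = true → inP24 g = true → pmul g rS = pmul rS g →
        EqP ((toM g • c) ∆ c) := fun g a b d => by
      obtain ⟨n, hn⟩ := st.sur (toM g)
      have := h n (coe_mem_pre.2 (hn ▸ mem_of_inP24 g a b)) ((comm_mem hω n).2 (by
        rw [hn, eω, commutatorElement_eq_one_iff_mul_comm.2 (by
          rw [← toM_pmul a inM_rS, ← toM_pmul inM_rS a, d])]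
        exact one_mem _))
      rwa [comm_psi st tod n hc, kW' _ (even_sd (by rwa [Finset.card_smul_finset]) hc), hn] at this
    rcases last c (key g3 chk3.1 chk3.2.1 chk3.2.2.1) (key g4 chk4.1 chk4.2.1 chk4.2.2.1) with
      h1 | h1
    · exact Or.inl ((kW' c hc).2 h1)
    · refine Or.inr ?_
      rw [← tod.add _ _ hc even9]
      exact (kW' _ (even_sd hc even9)).2 h1

end Cfsg.Agent.H62.RfTd
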